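import Cfsg.Agent.AutPSU.Points

/-!
Arithmetic codes for `GF(25) = F₅[√2]` (a code `a + 5 b` stands for `a + b√2`) and for `SU₃(5)` over it.
-/

set_option autoImplicit false

namespace CfsgLib.PSU35

open Matrix CfsgLib.UGeom

/-- Code addition. -/
def addC (x y : ℕ) : ℕ := (x % 5 + y % 5) % 5 + 5 * ((x / 5 + y / 5) % 5)

/-- Code multiplication. -/
def mulC (x y : ℕ) : ℕ :=
  ((x % 5) * (y % 5) + 2 * ((x / 5) * (y / 5))) % 5 + 5 * (((x % 5) * (y / 5) + (x / 5) * (y % 5)) % 5)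

/-- Code conjugation. -/
def cjC (x : ℕ) : ℕ := x % 5 + 5 * ((4 * (x / 5)) % 5)

/-- Code negation. -/
def negC (x : ℕ) : ℕ := (4 * (x % 5)) % 5 + 5 * ((4 * (x / 5)) % 5)

/-- A guess of the inverse, used to normalise vectors. -/
def invC (x : ℕ) : ℕ :=
  let n := ((x % 5) * (x % 5) + 3 * ((x / 5) * (x / 5))) % 5
  mulC (cjC x) (n * n * n % 5)

abbrev V := ℕ × ℕ × ℕ
abbrev M := V × V × V

def dotC (u v : V) : ℕ := addC (addC (mulC u.1 v.1) (mulC u.2.1 v.2.1)) (mulC u.2.2 v.2.2)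
def cjV (v : V) : V := (cjC v.1, cjC v.2.1, cjC v.2.2)
def hermC (u v : V) : ℕ := dotC u (cjV v)
def mvC (A : M) (v : V) : V := (dotC A.1 v, dotC A.2.1 v, dotC A.2.2 v)
def col0 (A : M) : V := (A.1.1, A.2.1.1, A.2.2.1)
def col1 (A : M) : V := (A.1.2.1, A.2.1.2.1, A.2.2.2.1)
def col2 (A : M) : V := (A.1.2.2, A.2.1.2.2, A.2.2.2.2)
def ofCols (a b c : V) : M := ((a.1, b.1, c.1), (a.2.1, b.2.1, c.2.1), (a.2.2, b.2.2, c.2.2))
def mmC (A B : M) : M := ofCols (mvC A (col0 B)) (mvC A (col1 B)) (mvC A (col2 B))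
def oneM : M := ((1, 0, 0), (0, 1, 0), (0, 0, 1))
def powC (A : M) : ℕ → M
  | 0 => oneM
  | k + 1 => mmC (powC A k) A
def smulV (c : ℕ) (v : V) : V := (mulC c v.1, mulC c v.2.1, mulC c v.2.2)
def detC (A : M) : ℕ :=
  addC (addC (addC (addC (addC
    (mulC (mulC A.1.1 A.2.1.2.1) A.2.2.2.2)
    (negC (mulC (mulC A.1.1 A.2.1.2.2) A.2.2.2.1)))
    (negC (mulC (mulC A.1.2.1 A.2.1.1) A.2.2.2.2)))
    (mulC (mulC A.1.2.1 A.2.1.2.2) A.2.2.1))
    (mulC (mulC A.1.2.2 A.2.1.1) A.2.2.2.1))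
    (negC (mulC (mulC A.1.2.2 A.2.1.2.1) A.2.2.1))
/-- Unitary of determinant one. -/
def isU (A : M) : Bool :=
  hermC (col0 A) (col0 A) == 1 && hermC (col1 A) (col1 A) == 1 && hermC (col2 A) (col2 A) == 1 &&
  hermC (col0 A) (col1 A) == 0 && hermC (col0 A) (col2 A) == 0 && hermC (col1 A) (col2 A) == 0 &&
  detC A == 1
def okV (v : V) : Bool := v.1 < 25 && v.2.1 < 25 && v.2.2 < 25
def okM (A : M) : Bool := okV A.1 && okV A.2.1 && okV A.2.2
def normV (w : V) : V :=
  smulV (invC (if w.1 != 0 then w.1 else if w.2.1 != 0 then w.2.1 else w.2.2)) w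
/-- The points of the list `S` go to points of `S`. -/
def mapsS (S : List V) (A : M) : Bool := S.all fun p => S.contains (normV (mvC A p))
/-- A list that is closed under multiplication, contains the identity and is made of special unitary codes. -/
def isGrp (L : List M) : Bool :=
  L.contains oneM && (L.all fun a => isU a && okM a) && L.all fun a => L.all fun b => L.contains (mmC a b)

theorem addC_lt (x y : ℕ) : addC x y < 25 := by unfold addC; omega
theorem mulC_lt (x y : ℕ) : mulC x y < 25 := by unfold mulC; omega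
theorem negC_lt (x : ℕ) : negC x < 25 := by unfold negC; omega
theorem dotC_lt (u v : V) : dotC u v < 25 := addC_lt _ _

theorem okV_mvC (A : M) (v : V) : okV (mvC A v) = true := by
  simp [okV, mvC, dotC_lt]

theorem okM_mmC (A B : M) : okM (mmC A B) = true := by
  simp [okM, okV, mmC, ofCols, mvC, dotC_lt]

theorem okV_smulV (c : ℕ) (v : V) : okV (smulV c v) = true := by
  simp [okV, smulV, mulC_lt]

/-- A square root of two in a field with 25 elements. -/
structure Root (F : Type*) [Field F] [Fintype F] where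
  r : F
  sq : r * r = 2
  conj : Conj F 5

variable {F : Type*} [Field F] [Fintype F]

theorem nonempty_root (hF : Fintype.card F = 25) : Nonempty (Root F) := by
  obtain ⟨C⟩ := nonempty_conj (F := F) (q := 5) (by rw [hF]; norm_num)
  obtain ⟨r, hr⟩ : IsSquare (2 : F) := FiniteField.isSquare_two_iff.2 (by rw [hF]; decide)
  exact ⟨⟨r, hr.symm, C⟩⟩

variable (R : Root F)

theorem char_five (_R : Root F) : CharP F 5 := by
  obtain ⟨p, hp⟩ := CharP.exists F
  haveI : Fact p.Prime := ⟨CharP.char_is_prime F p⟩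
  have h1 := AutPSU.p_dvd_q _R.conj p
  rwa [(Nat.prime_dvd_prime_iff_eq (Fact.out : p.Prime) Nat.prime_five).1 h1] at hp

theorem cast_mod (_R : Root F) (n : ℕ) : ((n % 5 : ℕ) : F) = (n : F) := by
  haveI := char_five _R
  exact (CharP.natCast_eq_natCast F 5).2 (Nat.mod_modEq n 5)

theorem five_zero (_R : Root F) : (5 : F) = 0 := by
  haveI := char_five _R
  exact_mod_cast CharP.cast_eq_zero F 5

/-- The field element of a code. -/
def φ (x : ℕ) : F := ((x % 5 : ℕ) : F) + ((x / 5 : ℕ) : F) * R.r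

theorem φ_zero : φ R 0 = 0 := by simp [φ]
theorem φ_one : φ R 1 = 1 := by simp [φ]

theorem φ_mk (a b : ℕ) : φ R (a % 5 + 5 * (b % 5)) = (a : F) + (b : F) * R.r := by
  rw [φ, show (a % 5 + 5 * (b % 5)) % 5 = a % 5 by omega, show (a % 5 + 5 * (b % 5)) / 5 = b % 5 by omega,
    cast_mod R, cast_mod R]

theorem φ_addC (x y : ℕ) : φ R (addC x y) = φ R x + φ R y := by
  rw [addC, φ_mk, φ, φ]
  push_cast
  ring

theorem φ_mulC (x y : ℕ) : φ R (mulC x y) = φ R x * φ R y := by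
  rw [mulC, φ_mk, φ, φ]
  push_cast
  linear_combination (-(((x / 5 : ℕ) : F) * ((y / 5 : ℕ) : F))) * R.sq

theorem φ_negC (x : ℕ) : φ R (negC x) = -φ R x := by
  rw [negC, φ_mk, φ]
  push_cast
  linear_combination (((x % 5 : ℕ) : F) + ((x / 5 : ℕ) : F) * R.r) * five_zero R

theorem σ_r : R.conj.σ R.r = -R.r := by
  rw [R.conj.pow]
  linear_combination (R.r * R.r * R.r + 2 * R.r) * R.sq + R.r * five_zero R

theorem φ_cjC (x : ℕ) : φ R (cjC x) = R.conj.σ (φ R x) := by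
  rw [cjC, φ, φ, show (x % 5 + 5 * (4 * (x / 5) % 5)) % 5 = x % 5 by omega,
    show (x % 5 + 5 * (4 * (x / 5) % 5)) / 5 = 4 * (x / 5) % 5 by omega, cast_mod R (4 * _), map_add,
    map_mul, map_natCast, map_natCast, σ_r]
  push_cast
  linear_combination (((x / 5 : ℕ) : F) * R.r) * five_zero R

theorem two_not_sq : ∀ c : ZMod 5, c * c ≠ 2 := by decide

theorem r_ne (c : ZMod 5) : haveI := char_five R; R.r ≠ ZMod.castHom dvd_rfl F c := by
  haveI := char_five R
  haveI : Fact (Nat.Prime 5) := ⟨Nat.prime_five⟩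
  intro h
  have h2 : ZMod.castHom dvd_rfl F (c * c) = ZMod.castHom dvd_rfl F (2 : ZMod 5) := by
    rw [map_mul, ← h, R.sq, map_ofNat]
  exact two_not_sq c ((ZMod.castHom dvd_rfl F).injective h2)

theorem φ_inj {x y : ℕ} (hx : x < 25) (hy : y < 25) (h : φ R x = φ R y) : x = y := by
  haveI := char_five R
  haveI : Fact (Nat.Prime 5) := ⟨Nat.prime_five⟩
  set f := ZMod.castHom (dvd_refl 5) F
  have hc : ∀ n : ℕ, (n : F) = f (n : ZMod 5) := fun n => (map_natCast f n).symm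
  rw [φ, φ, hc, hc, hc, hc] at h
  set a := ((x % 5 : ℕ) : ZMod 5)
  set b := ((x / 5 : ℕ) : ZMod 5)
  set a' := ((y % 5 : ℕ) : ZMod 5)
  set b' := ((y / 5 : ℕ) : ZMod 5)
  have hb : b = b' := by
    by_contra hne
    have hne' : f b - f b' ≠ 0 := sub_ne_zero.2 fun e => hne (f.injective e)
    refine r_ne R ((a' - a) / (b - b')) ?_
    rw [map_div₀, map_sub, map_sub, eq_div_iff hne']
    linear_combination h
  rw [hb, add_left_inj] at h
  have ha := f.injective h
  have e1 := congrArg ZMod.val ha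
  have e2 := congrArg ZMod.val hb
  simp only [a, a', b, b', ZMod.val_natCast] at e1 e2
  omega

theorem φ_surj (x : F) : ∃ c < 25, φ R c = x := by
  have hinj : Function.Injective fun c : Fin 25 => φ R c.1 := fun a b h => Fin.ext (φ_inj R a.2 b.2 h)
  have hb : Function.Bijective fun c : Fin 25 => φ R c.1 :=
    (Fintype.bijective_iff_injective_and_card _).2 ⟨hinj, by rw [Fintype.card_fin, R.conj.card]; rfl⟩
  obtain ⟨c, hc⟩ := hb.2 x
  exact ⟨c.1, c.2, hc⟩

theorem φ_eq_zero {x : ℕ} (hx : x < 25) : φ R x = 0 ↔ x = 0 :=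
  ⟨fun h => φ_inj R hx (by omega) (h.trans (φ_zero R).symm), fun h => by rw [h, φ_zero]⟩

/-- Vectors. -/
def φv (v : V) : Fin 3 → F := ![φ R v.1, φ R v.2.1, φ R v.2.2]

/-- Matrices. -/
def φm (A : M) : Matrix (Fin 3) (Fin 3) F := Matrix.of ![φv R A.1, φv R A.2.1, φv R A.2.2]

theorem φ_dotC (u v : V) : φ R (dotC u v) = φv R u ⬝ᵥ φv R v := by
  simp [dotC, φv, dotProduct, Fin.sum_univ_three, φ_addC, φ_mulC]

theorem φ_hermC (u v : V) : φ R (hermC u v) = Cfsg.hermForm 3 F 5 (φv R u) (φv R v) := by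
  rw [hermC, φ_dotC, form_eq R.conj]
  simp [φv, cjV, dotProduct, Fin.sum_univ_three, φ_cjC]

theorem φv_mvC (A : M) (v : V) : φv R (mvC A v) = φm R A *ᵥ φv R v := by
  funext i
  fin_cases i <;> simp [φm, mvC, φv, Matrix.mulVec, φ_dotC]

theorem φv_smulV (c : ℕ) (v : V) : φv R (smulV c v) = φ R c • φv R v := by
  funext i
  fin_cases i <;> simp [smulV, φv, φ_mulC]

theorem φv_inj {u v : V} (hu : okV u = true) (hv : okV v = true) (h : φv R u = φv R v) : u = v := by
  simp only [okV, Bool.and_eq_true, decide_eq_true_eq] at hu hv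
  refine Prod.ext ?_ (Prod.ext ?_ ?_)
  · exact φ_inj R hu.1.1 hv.1.1 (congrFun h 0)
  · exact φ_inj R hu.1.2 hv.1.2 (congrFun h 1)
  · exact φ_inj R hu.2 hv.2 (congrFun h 2)

theorem φv_surj (x : Fin 3 → F) : ∃ v : V, okV v = true ∧ φv R v = x := by
  obtain ⟨a, ha, ha'⟩ := φ_surj R (x 0)
  obtain ⟨b, hb, hb'⟩ := φ_surj R (x 1)
  obtain ⟨c, hc, hc'⟩ := φ_surj R (x 2)
  refine ⟨(a, b, c), by simp [okV, ha, hb, hc], funext fun i => ?_⟩
  fin_cases i <;> simp [φv, ha', hb', hc']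

theorem φm_inj {A B : M} (hA : okM A = true) (hB : okM B = true) (h : φm R A = φm R B) : A = B := by
  simp only [okM, Bool.and_eq_true] at hA hB
  refine Prod.ext ?_ (Prod.ext ?_ ?_)
  · exact φv_inj R hA.1.1 hB.1.1 (congrFun h 0)
  · exact φv_inj R hA.1.2 hB.1.2 (congrFun h 1)
  · exact φv_inj R hA.2 hB.2 (congrFun h 2)

theorem φm_col (A : M) :
    (fun i => φm R A i 0) = φv R (col0 A) ∧ (fun i => φm R A i 1) = φv R (col1 A) ∧
      (fun i => φm R A i 2) = φv R (col2 A) := by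
  refine ⟨?_, ?_, ?_⟩ <;> funext i <;> fin_cases i <;> rfl

theorem φm_oneM : φm R oneM = 1 := by
  ext i j
  fin_cases i <;> fin_cases j <;> simp [φm, φv, oneM, φ_zero, φ_one]

theorem φm_mmC (A B : M) : φm R (mmC A B) = φm R A * φm R B := by
  ext i j
  fin_cases i <;> fin_cases j <;>
    simp [φm, φv, mmC, ofCols, mvC, col0, col1, col2, dotC, Matrix.mul_apply, Fin.sum_univ_three, φ_addC, φ_mulC]

theorem φm_powC (A : M) (k : ℕ) : φm R (powC A k) = φm R A ^ k := by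
  induction k with
  | zero => rw [powC, φm_oneM, pow_zero]
  | succ k ih => rw [powC, φm_mmC, ih, pow_succ]

theorem okM_powC (A : M) : ∀ k, okM (powC A k) = true
  | 0 => rfl
  | _ + 1 => okM_mmC _ _

theorem φ_detC (A : M) : φ R (detC A) = (φm R A).det := by
  rw [Matrix.det_fin_three]
  simp [detC, φm, φv, φ_addC, φ_mulC, φ_negC]
  ring

theorem form_col_expand (A : Matrix (Fin 3) (Fin 3) F) (u v : Fin 3 → F) :
    Cfsg.hermForm 3 F 5 (A *ᵥ u) (A *ᵥ v) =
      ∑ i, ∑ j, u i * R.conj.σ (v j) * Cfsg.hermForm 3 F 5 (fun k => A k i) (fun k => A k j) := by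
  simp only [form_eq R.conj, Matrix.mulVec, dotProduct, Fin.sum_univ_three, map_add, map_mul]
  ring

/-- `SU₃(5)` is read off from the codes. -/
theorem mem_SU_of_isU {A : M} (h : isU A = true) :
    ∃ g : Cfsg.SU 3 F 5, (g.1 : Matrix (Fin 3) (Fin 3) F) = φm R A := by
  simp only [isU, Bool.and_eq_true, beq_iff_eq] at h
  obtain ⟨⟨⟨⟨⟨⟨h00, h11⟩, h22⟩, h01⟩, h02⟩, h12⟩, hd⟩ := h
  have hd' : (φm R A).det = 1 := by rw [← φ_detC, hd, φ_one]
  obtain ⟨c0, c1, c2⟩ := φm_col R A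
  refine ⟨⟨⟨φm R A, hd'⟩, fun u v => ?_⟩, rfl⟩
  change Cfsg.hermForm 3 F 5 (φm R A *ᵥ u) (φm R A *ᵥ v) = _
  have e : ∀ {x y : V} {c : ℕ}, hermC x y = c → Cfsg.hermForm 3 F 5 (φv R x) (φv R y) = φ R c :=
    fun he => by rw [← φ_hermC, he]
  have s : ∀ {x y : V}, hermC x y = 0 → Cfsg.hermForm 3 F 5 (φv R y) (φv R x) = 0 :=
    fun he => by rw [← form_conj R.conj, e he, φ_zero, map_zero]
  rw [form_col_expand R]
  simp only [Fin.sum_univ_three, c0, c1, c2, e h00, e h11, e h22, e h01, e h02, e h12, s h01, s h02, s h12,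
    φ_zero, φ_one, form_eq R.conj u v]
  ring

theorem isU_of_mem {A : M} (g : Cfsg.SU 3 F 5) (hg : (g.1 : Matrix (Fin 3) (Fin 3) F) = φm R A) :
    isU A = true := by
  obtain ⟨c0, c1, c2⟩ := φm_col R A
  have hsingle : ∀ i, φm R A *ᵥ Pi.single i 1 = fun k => φm R A k i := fun i => Matrix.mulVec_single_one _ i
  have hform : ∀ i j : Fin 3, Cfsg.hermForm 3 F 5 (fun k => φm R A k i) (fun k => φm R A k j) =
      if i = j then 1 else 0 := by
    intro i j
    rw [← hsingle, ← hsingle, ← hg, SU_form g, form_single_right R.conj, Pi.single_apply]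
    simp [eq_comm]
  have key : ∀ {x y : V} {c : ℕ}, c < 25 → Cfsg.hermForm 3 F 5 (φv R x) (φv R y) = φ R c → hermC x y = c :=
    fun hc he => φ_inj R (dotC_lt _ _) hc (by rw [φ_hermC, he])
  have f00 := hform 0 0
  have f11 := hform 1 1
  have f22 := hform 2 2
  have f01 := hform 0 1
  have f02 := hform 0 2
  have f12 := hform 1 2
  simp only [c0, c1, c2, Fin.reduceEq, if_true, if_false] at f00 f11 f22 f01 f02 f12
  simp only [isU, Bool.and_eq_true, beq_iff_eq]
  refine ⟨⟨⟨⟨⟨⟨?_, ?_⟩, ?_⟩, ?_⟩, ?_⟩, ?_⟩, ?_⟩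
  · exact key (by omega) (f00.trans (φ_one R).symm)
  · exact key (by omega) (f11.trans (φ_one R).symm)
  · exact key (by omega) (f22.trans (φ_one R).symm)
  · exact key (by omega) (f01.trans (φ_zero R).symm)
  · exact key (by omega) (f02.trans (φ_zero R).symm)
  · exact key (by omega) (f12.trans (φ_zero R).symm)
  · refine φ_inj R (addC_lt _ _) (by omega) ?_
    rw [φ_detC, φ_one, ← hg]
    exact g.1.2

end CfsgLib.PSU35
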