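import Mathlib

/-!
Sylow counting for a group of order 378000 acting on 126 points with trivial intersection Sylow 5-subgroups.
-/

set_option autoImplicit false

namespace CfsgLib.PSU35

open Subgroup MulAction

/-- The arithmetic conditions on the index of a subgroup containing the centre. -/
def crit (n : ℕ) : Bool :=
  let N := 378000 / n
  (n % 7 == 0 || (N / 21) % 7 == 1 || (N % 63 == 0 && (N / 63) % 7 == 1)) &&
  (List.range 4).any fun a => (List.range 127).any fun k =>
    N % 5 ^ a == 0 && (N / 5 ^ a) % 5 != 0 && N % k == 0 && k != 0 && k % 5 ^ a == 1 &&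
      3000 % (N / k) == 0 && (N / k) % (3 * 5 ^ a) == 0

variable {G : Type*} [Group G] [Finite G]

theorem card_eq_of_dvd {p : ℕ} [Fact p.Prime] {n a : ℕ} (hd : p ^ a ∣ n) (hnd : ¬ p ∣ n / p ^ a) :
    n.factorization p = a := by
  have hp : p.Prime := Fact.out
  have hn : n / p ^ a ≠ 0 := fun h => hnd (by rw [h]; exact dvd_zero p)
  conv_lhs => rw [← Nat.mul_div_cancel' hd]
  rw [Nat.factorization_mul (pow_ne_zero _ hp.ne_zero) hn, Finsupp.add_apply, hp.factorization_pow,
    Finsupp.single_eq_same, Nat.factorization_eq_zero_of_not_dvd hnd, add_zero]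

theorem three_mul_dvd {H A B : Subgroup G} (hA : A ≤ H) (hB : B ≤ H) {a b : ℕ} (ha : Nat.card A = a)
    (hb : Nat.card B = b) (hc : a.Coprime b) : a * b ∣ Nat.card H :=
  hc.mul_dvd_of_dvd_of_dvd (ha ▸ card_dvd_of_le hA) (hb ▸ card_dvd_of_le hB)

variable {X : Type*} [Finite X] [MulAction G X] [IsPretransitive G X]

/-- Any two 5-subgroups of a point stabiliser lie in a common one. -/
theorem sylow_stab_unique (hG : Nat.card G = 378000) (hX : Nat.card X = 126) {Z : Subgroup G}
    (hZc : Z ≤ center G) (hZ3 : Nat.card Z = 3) (hZX : ∀ z ∈ Z, ∀ x : X, z • x = x) (x : X) :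
    ∃ R : Subgroup G, IsPGroup 5 R ∧ ∀ P : Subgroup G, IsPGroup 5 P → P ≤ stabilizer G x → P ≤ R := by
  haveI : Fact (Nat.Prime 5) := ⟨Nat.prime_five⟩
  set S := stabilizer G x with hS
  have hSc : Nat.card S = 3000 := by
    have h := (stabilizer G x).card_mul_index
    rw [index_stabilizer_of_transitive G x, hX, hG, ← hS] at h
    omega
  let R : Sylow 5 S := default
  have hRc : Nat.card (R : Subgroup S) = 125 := by
    rw [R.card_eq_multiplicity, hSc, card_eq_of_dvd (a := 3) (by norm_num) (by norm_num)]; norm_num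
  have hone : Nat.card (Sylow 5 S) = 1 := by
    have hmod : Nat.card (Sylow 5 S) % 5 = 1 := card_sylow_modEq_one 5 S
    rw [Sylow.card_eq_index_normalizer R] at hmod ⊢
    set N := Subgroup.normalizer ((R : Subgroup S) : Set S)
    have hZN : Z.subgroupOf S ≤ N := fun z hz => by
      have hc : ∀ y : S, z * y = y * z := fun y => Subtype.ext
        ((mem_center_iff.1 (hZc hz) (y : G)).symm)
      rw [Subgroup.mem_normalizer_iff]
      intro h
      rw [hc h, mul_inv_cancel_right]
    have hZS : Z ≤ S := fun z hz => hZX z hz x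
    have h375 : 3 * 125 ∣ Nat.card N := three_mul_dvd hZN le_normalizer
      ((Nat.card_congr (subgroupOfEquivOfLe hZS).toEquiv).trans hZ3) hRc (by norm_num)
    have hNi := N.card_mul_index
    rw [hSc] at hNi
    obtain ⟨c, hc⟩ := h375
    rw [hc] at hNi
    have h8 : N.index ∣ 8 := ⟨c, by nlinarith⟩
    have := Nat.le_of_dvd (by norm_num) h8
    interval_cases N.index <;> simp_all
  haveI := (Nat.card_eq_one_iff_unique.1 hone).1
  refine ⟨(R : Subgroup S).map S.subtype, R.2.map _, fun P hP hPS => ?_⟩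
  obtain ⟨R', hR'⟩ := (hP.comap_of_injective S.subtype S.subtype_injective).exists_le_sylow
  intro y hy
  exact ⟨⟨y, hPS hy⟩, Subsingleton.elim R' R ▸ hR' hy, rfl⟩

/-- The Sylow counting criterion. -/
theorem crit_index (hG : Nat.card G = 378000) (hX : Nat.card X = 126) {Z : Subgroup G}
    (hZc : Z ≤ center G) (hZ3 : Nat.card Z = 3) (hZX : ∀ z ∈ Z, ∀ x : X, z • x = x)
    (hfree : ∀ g : G, g ≠ 1 → (∃ i : ℕ, g ^ 5 ^ i = 1) → ∀ x y : X, g • x = x → g • y = y → x = y)
    (hN7 : ∀ P : Sylow 7 G, Nat.card (Subgroup.normalizer ((P : Subgroup G) : Set G)) = 63)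
    (K : Subgroup G) (hZK : Z ≤ K) (hn : K.index < 50) : crit K.index = true := by
  classical
  haveI : Fact (Nat.Prime 5) := ⟨Nat.prime_five⟩
  haveI : Fact (Nat.Prime 7) := ⟨by norm_num⟩
  set n := K.index with hndef
  have hKn : Nat.card K * n = 378000 := by rw [← hG]; exact K.card_mul_index
  have hn0 : 0 < n := Nat.pos_of_ne_zero K.index_ne_zero_of_finite
  set N := 378000 / n with hN
  have hNK : Nat.card K = N := by rw [hN, ← hKn, Nat.mul_div_cancel _ hn0]
  have hN5 : 5 ∣ Nat.card K := by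
    by_contra h5
    have h125 : 5 ^ 3 ∣ n :=
      (Nat.Coprime.pow_left 3 ((Nat.Prime.coprime_iff_not_dvd Nat.prime_five).2 h5)).dvd_of_dvd_mul_left
        (by rw [hKn]; norm_num)
    have := Nat.le_of_dvd hn0 h125
    omega
  let Q : Sylow 5 K := default
  set a := (Nat.card K).factorization 5 with ha
  have hQc : ∀ P : Sylow 5 K, Nat.card (P : Subgroup K) = 5 ^ a := fun P => P.card_eq_multiplicity
  have ha1 : 1 ≤ a := (Nat.Prime.dvd_iff_one_le_factorization Nat.prime_five Nat.card_pos.ne').1 hN5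
  have ha3 : a ≤ 3 := by
    have h := (Nat.factorization_le_iff_dvd Nat.card_pos.ne' (by norm_num : (378000 : ℕ) ≠ 0)).2
      (Dvd.intro n hKn) 5
    rw [card_eq_of_dvd (p := 5) (n := 378000) (a := 3) (by norm_num) (by norm_num)] at h
    exact h
  -- fixed points
  have hfix : ∀ P : Sylow 5 K, ∃ x : X, ∀ p ∈ (P : Subgroup K), (p : G) • x = x := by
    intro P
    obtain ⟨x, hx⟩ := (P.2.map K.subtype).nonempty_fixed_point_of_prime_not_dvd_card X
      (by rw [hX]; norm_num)
    exact ⟨x, fun p hp => hx ⟨(p : G), p, hp, rfl⟩⟩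
  choose pt hpt using hfix
  have hne : ∀ P : Sylow 5 K, ∃ p ∈ (P : Subgroup K), p ≠ 1 := by
    intro P
    refine ((P : Subgroup K).bot_or_exists_ne_one).resolve_left ?_
    intro hb
    have := hQc P
    rw [hb, Subgroup.card_bot] at this
    have : 5 ≤ 5 ^ a := Nat.le_self_pow (by omega) 5
    omega
  have hp5 : ∀ (P : Sylow 5 K) {p : K}, p ∈ (P : Subgroup K) → ∃ i : ℕ, (p : G) ^ 5 ^ i = 1 := by
    intro P p hp
    obtain ⟨i, hi⟩ := P.2 ⟨p, hp⟩
    exact ⟨i, by rw [← SubgroupClass.coe_pow]; exact congrArg Subtype.val (congrArg Subtype.val hi)⟩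
  have huniq : ∀ (P : Sylow 5 K) (y : X), (∀ p ∈ (P : Subgroup K), (p : G) • y = y) → y = pt P := by
    intro P y hy
    obtain ⟨p, hp, hp1⟩ := hne P
    exact hfree p (fun h => hp1 (Subtype.ext h)) (hp5 P hp) y (pt P) (hy p hp) (hpt P p hp)
  have hinj : Function.Injective pt := by
    intro P P' h
    obtain ⟨R, hR, hle⟩ := sylow_stab_unique hG hX hZc hZ3 hZX (pt P)
    have hsub : ∀ P'' : Sylow 5 K, pt P'' = pt P → (P'' : Subgroup K) ≤ R.comap K.subtype := by
      intro P'' e p hp
      refine hle _ (P''.2.map K.subtype) ?_ ⟨p, hp, rfl⟩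
      rintro _ ⟨p', hp', rfl⟩
      rw [mem_stabilizer_iff, ← e]
      exact hpt P'' p' hp'
    have hRK := hR.comap_of_injective K.subtype K.subtype_injective
    exact Sylow.ext ((P.3 hRK (hsub P rfl)).symm.trans (P'.3 hRK (hsub P' h.symm)))
  -- conjugation
  have hequiv : ∀ (g : K) (P : Sylow 5 K), pt (g • P) = (g : G) • pt P := by
    intro g P
    refine (huniq (g • P) _ fun p hp => ?_).symm
    rw [Sylow.coe_subgroup_smul, Subgroup.mem_pointwise_smul_iff_inv_smul_mem] at hp
    have h := hpt P _ hp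
    simp only [← map_inv, MulAut.smul_def, MulAut.conj_apply, inv_inv, Subgroup.coe_mul, Subgroup.coe_inv] at h
    rw [mul_smul, mul_smul, inv_smul_eq_iff] at h
    exact h
  set k := Nat.card (Sylow 5 K) with hk
  have hk126 : k ≤ 126 := hX ▸ Nat.card_le_card_of_injective pt hinj
  have hkmod : k % 5 ^ a = 1 := by
    let T := {P : Sylow 5 K // P ≠ Q}
    letI : MulAction (Q : Subgroup K) T :=
      { smul := fun q P => ⟨(q : K) • P.1, fun h => P.2 (by
          have hq : (q : K) • Q = Q := Sylow.smul_eq_iff_mem_normalizer.2 (le_normalizer q.2)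
          exact MulAction.injective (q : K) (h.trans hq.symm))⟩
        one_smul := fun P => Subtype.ext (one_smul K P.1)
        mul_smul := fun q q' P => Subtype.ext (mul_smul (q : K) (q' : K) P.1) }
    have hstab : ∀ P : T, stabilizer (Q : Subgroup K) P = ⊥ := by
      intro P
      refine (Subgroup.eq_bot_iff_forall _).2 fun q hq => ?_
      by_contra hq1
      have h1 : (q : K) • P.1 = P.1 := congrArg Subtype.val hq
      have hfixP : ((q : K) : G) • pt P.1 = pt P.1 := by rw [← hequiv, h1]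
      exact P.2 (hinj (hfree _ (fun h => hq1 (Subtype.ext (Subtype.ext h))) (hp5 Q q.2) _ _ hfixP
        (hpt Q q q.2)))
    have hT : 5 ^ a ∣ Nat.card T := by
      letI := Fintype.ofFinite (MulAction.orbitRel.Quotient (Q : Subgroup K) T)
      rw [Nat.card_congr (MulAction.selfEquivSigmaOrbitsQuotientStabilizer (Q : Subgroup K) T), Nat.card_sigma]
      refine Finset.dvd_sum fun ω _ => ?_
      rw [← Subgroup.index_eq_card, hstab, Subgroup.index_bot, hQc Q]
    have hkT : k = Nat.card T + 1 := by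
      rw [hk, ← Finite.card_option]
      exact (Nat.card_congr (Equiv.optionSubtypeNe Q)).symm
    obtain ⟨c, hc⟩ := hT
    rw [hkT, hc, Nat.mul_add_mod, Nat.one_mod_eq_one]
    have : 5 ≤ 5 ^ a := Nat.le_self_pow (by omega) 5
    omega
  set M := Subgroup.normalizer ((Q : Subgroup K) : Set K) with hM
  have hMk : Nat.card M * k = N := by rw [hk, Sylow.card_eq_index_normalizer Q]; exact M.card_mul_index.trans hNK
  have hMstab : Nat.card M ∣ 3000 := by
    have hle : M.map K.subtype ≤ stabilizer G (pt Q) := by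
      rintro _ ⟨g, hg, rfl⟩
      rw [mem_stabilizer_iff, Subgroup.coe_subtype, ← hequiv, Sylow.smul_eq_iff_mem_normalizer.2 hg]
    have h := card_dvd_of_le hle
    rw [card_map_of_injective K.subtype_injective] at h
    refine h.trans (dvd_of_eq ?_)
    have h2 := (stabilizer G (pt Q)).card_mul_index
    rw [index_stabilizer_of_transitive G _, hX, hG] at h2
    omega
  have hcentral : ∀ (P : Subgroup K), Z.subgroupOf K ≤ Subgroup.normalizer (P : Set K) := fun P z hz => by
    have hc : ∀ y : K, z * y = y * z := fun y => Subtype.ext ((mem_center_iff.1 (hZc hz) (y : G)).symm)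
    rw [Subgroup.mem_normalizer_iff]
    intro h
    rw [hc h, mul_inv_cancel_right]
  have hZKc : Nat.card (Z.subgroupOf K) = 3 := (Nat.card_congr (subgroupOfEquivOfLe hZK).toEquiv).trans hZ3
  have hM3 : 3 * 5 ^ a ∣ Nat.card M :=
    three_mul_dvd (hcentral _) le_normalizer hZKc (hQc Q) (Nat.Coprime.pow_right _ (by norm_num))
  -- the Sylow 7-subgroup
  have h7 : n % 7 = 0 ∨ N / 21 % 7 = 1 ∨ (N % 63 = 0 ∧ N / 63 % 7 = 1) := by
    by_cases h7n : 7 ∣ n
    · exact Or.inl (Nat.mod_eq_zero_of_dvd h7n)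
    right
    have h7K : 7 ∣ Nat.card K :=
      ((Nat.Prime.coprime_iff_not_dvd (Fact.out : (7 : ℕ).Prime)).2 h7n).dvd_of_dvd_mul_right
        (by rw [hKn]; norm_num)
    have h7G : (378000 : ℕ).factorization 7 = 1 := card_eq_of_dvd (by norm_num) (by norm_num)
    let P : Sylow 7 K := default
    have hP7 : Nat.card (P : Subgroup K) = 7 := by
      rw [P.card_eq_multiplicity, show (Nat.card K).factorization 7 = 1 from ?_, pow_one]
      refine le_antisymm (h7G ▸ (Nat.factorization_le_iff_dvd Nat.card_pos.ne' (by norm_num)).2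
        (Dvd.intro n hKn) 7) ((Nat.Prime.dvd_iff_one_le_factorization Fact.out Nat.card_pos.ne').1 h7K)
    set M7 := Subgroup.normalizer ((P : Subgroup K) : Set K) with hM7
    let PG : Sylow 7 G := Sylow.ofCard ((P : Subgroup K).map K.subtype)
      (by rw [card_map_of_injective K.subtype_injective, hP7, hG, h7G, pow_one])
    have hd : Nat.card M7 ∣ 63 := by
      rw [← hN7 PG, ← card_map_of_injective (K := M7) K.subtype_injective]
      exact card_dvd_of_le (Subgroup.le_normalizer_map _)
    have hd' : 3 * 7 ∣ Nat.card M7 := three_mul_dvd (hcentral _) le_normalizer hZKc hP7 (by norm_num)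
    have hmod : Nat.card (Sylow 7 K) % 7 = 1 := card_sylow_modEq_one 7 K
    have hmul : Nat.card M7 * Nat.card (Sylow 7 K) = N := by
      rw [Sylow.card_eq_index_normalizer P]; exact M7.card_mul_index.trans hNK
    have ht : Nat.card M7 = 21 ∨ Nat.card M7 = 63 := by
      have hle := Nat.le_of_dvd (by norm_num) hd
      obtain ⟨c, hc⟩ := hd'
      rcases (by omega : c = 0 ∨ c = 1 ∨ c = 2 ∨ c = 3) with rfl | rfl | rfl | rfl
      · exact absurd hc Nat.card_pos.ne'
      · left; omega
      · rw [hc] at hd; norm_num at hd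
      · right; omega
    rcases ht with e | e <;> rw [e] at hmul
    · left; rw [← hmul, Nat.mul_div_cancel_left _ (by norm_num)]; exact hmod
    · right; exact ⟨by omega, by rw [← hmul, Nat.mul_div_cancel_left _ (by norm_num)]; exact hmod⟩
  -- assemble
  have hk0 : 0 < k := Nat.card_pos
  have hNk : N / k = Nat.card M := by rw [← hMk, Nat.mul_div_cancel _ hk0]
  have h5a : N % 5 ^ a = 0 := by rw [← hNK]; exact Nat.mod_eq_zero_of_dvd (Nat.ordProj_dvd _ _)
  have h5a' : N / 5 ^ a % 5 ≠ 0 := by
    rw [← hNK]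
    exact fun h => Nat.not_dvd_ordCompl Nat.prime_five Nat.card_pos.ne' (Nat.dvd_of_mod_eq_zero h)
  simp only [crit, Bool.and_eq_true, Bool.or_eq_true, beq_iff_eq, bne_iff_ne, List.any_eq_true,
    List.mem_range, ← hN]
  refine ⟨by tauto, a, by omega, k, by omega, ⟨⟨⟨⟨⟨⟨h5a, h5a'⟩, ?_⟩, hk0.ne'⟩, hkmod⟩, ?_⟩, ?_⟩⟩
  · rw [← hMk]; exact Nat.mul_mod_left _ _
  · rw [hNk]; exact Nat.mod_eq_zero_of_dvd hMstab
  · rw [hNk]; exact Nat.mod_eq_zero_of_dvd hM3

/-- Only the indices eight and ten survive the criterion. -/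
theorem crit_small : ∀ n < 50, 2 ≤ n → 378000 % n = 0 → crit n = true → n = 8 ∨ n = 10 := by
  decide +kernel

end CfsgLib.PSU35
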